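import Cfsg.Agent.Mult.Slices
import Cfsg.Agent.G24C.BaseT0

set_option autoImplicit false
set_option Elab.async false
set_option maxRecDepth 100000
set_option linter.all false

namespace Cfsg.Agent.G24C
open Cfsg.Agent.CGT

open Cfsg.Agent.Mult

theorem h_base : ∀ j < Bs.length, kf4.Chk ix (fun x y => Cfsg.Lie.chevG2.x K4 (nth (0, 0) Es j).1 (kf4.nm (nth (0, 0) Es j).2) x y) (nth [] Bs j) :=
  fun j hj => by
    change j < 12 at hj
    interval_cases j
    exacts [h_b0, h_b1, h_b2, h_b3, h_b4, h_b5, h_b6, h_b7, h_b8, h_b9, h_b10, h_b11]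

end Cfsg.Agent.G24C
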