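import Cfsg.Agent.Mult.Slices
import Cfsg.Agent.G24C.Tabs

set_option autoImplicit false
set_option Elab.async false
set_option maxRecDepth 100000
set_option linter.all false

namespace Cfsg.Agent.G24C
open Cfsg.Agent.CGT

open Cfsg.Agent.Mult

noncomputable def u5_D : PC := ⟨5, 2, 3, 22,
  [[0, 8], [0, 0]],
  [0, 0],
  [(2, 1, 1), (2, 8, 0x23), (3, 8, 0xa)], 9, 0x1000100000001⟩
noncomputable def u5_ds : List (List ℕ) := [[5, 11, 8, 0, 4, 0, 9, 6, 10], [4, 0, 7, 9, 0, 5, 2, 14, 9, 7], [0, 5, 0, 2, 10, 7, 0, 6, 8, 0, 7], [10, 0, 9, 0, 9, 6, 8, 0, 2, 9]]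
noncomputable def u5_c : Mult.Cert := ⟨37, 19, [[], []],
  [],
  [[3, 0x32], [0, 0xc]]⟩

end Cfsg.Agent.G24C
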