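import Cfsg.Agent.CGT.Act

set_option autoImplicit false
set_option Elab.async false
set_option maxRecDepth 100000
set_option linter.all false

namespace Cfsg.Agent.G24C
open Cfsg.Agent.CGT

noncomputable def qRR : List (List ℕ) := [[0, 0], [2, 2], [12, 12], [14, 14], [14, 12, 14, 12], [11, 11, 12], [10, 14, 11, 14], [12, 9, 9, 14], [8, 10, 9, 11], [6, 6, 6], [7, 12, 6, 12], [7, 14, 6, 14], [6, 11, 6, 11, 6, 11], [8, 6, 8, 6, 9, 6, 14], [9, 7, 11, 6, 9, 7, 11, 6], [4, 4, 4], [7, 5, 10, 4, 6, 9], [10, 4, 6, 5, 8, 7], [6, 4, 6, 4, 6, 4], [11, 2, 6, 11, 2, 6], [2, 4, 7, 2, 4, 7, 2, 4, 7], [10, 2, 4, 10, 2, 6, 8, 2, 5, 6], [2, 7, 2, 6, 2, 7, 2, 6], [8, 2, 0, 7, 8, 10, 0, 2, 9, 6], [6, 5, 7, 8, 10, 4, 9, 11], [12, 5, 14, 4], [2, 4, 0, 6, 4, 14, 2, 4, 0, 6, 4, 14], [7, 2, 8,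 4, 10, 2, 8, 10, 2, 5, 11], [2, 9, 5, 12, 2, 8, 5, 2, 8, 5], [10, 5, 2, 6, 5, 2, 4, 9, 4, 11, 2], [5, 2, 14, 8, 5, 2, 6, 5, 6, 2, 7], [9, 2, 0, 2, 5, 12, 0, 9, 4, 0, 4, 2, 9], [0, 12, 6, 5, 0, 7, 0, 5, 6, 10, 5, 0, 10, 7], [2, 9, 6, 8, 2, 0, 6, 5, 9, 4, 6, 0]]

end Cfsg.Agent.G24C
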